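import Cfsg.Agent.Lib.CosetCert.D.J3.Lv0.Tab

namespace Cfsg.Agent.Lib.CosetCert.D.J3.Lv0.C4

open Cfsg.Agent.Lib.CosetCert Cfsg.Agent.Lib.TC.Core Cfsg.Agent.Lib.TC.Enc Cfsg.Agent.Lib.TC.Pres Cfsg.Agent.Lib.TC.Perm Cfsg.Agent.Lib.TC.Main

set_option maxRecDepth 100000

open Cfsg.Agent.Lib.CosetCert.D.J3.Lv0.Tab in
theorem ok : cert.chkRange 20000 5000 = true := by decide +kernel

open Cfsg.Agent.Lib.CosetCert.D.J3.Lv0.Tab in
theorem fin : cert.chkFinal 20000 5000 = true := by decide +kernel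

end Cfsg.Agent.Lib.CosetCert.D.J3.Lv0.C4
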